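import Cfsg.Agent.MCX.Bas
import Cfsg.Agent.Char.TI
import Cfsg.Agent.Char.NormThree
import Cfsg.Agent.Char.BrauerSuzuki

/-! A Brauer-Suzuki argument with a dihedral quotient of order 10. -/

set_option autoImplicit false

namespace Cfsg.Agent.MCX

open Cfsg Subgroup Cfsg.Agent.Char

theorem c8_pair {G : Type*} [Group G] [Fintype G] (C N : Subgroup G) (hCN : C ≤ N)
    (hconj : ∀ g ∈ N, ∀ y ∈ C, g * y * g⁻¹ ∈ C) (hidx : (C.subgroupOf N).index = 2)
    (lam : C →* ℂˣ) {s x : G} (hsN : s ∈ N) (hs : s ∉ C) (hxC : x ∈ C)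
    (hsx : lam ⟨s * x * s⁻¹, hconj s hsN x hxC⟩ ≠ lam ⟨x, hxC⟩) (hlx : lam ⟨x, hxC⟩ ≠ 1)
    (hTI0 : ∀ (g : G) (y z : C), lam y ≠ 1 → lam z ≠ 1 → g * y * g⁻¹ = z → g ∈ N) :
    ∃ χ₁ χ₂ : G → ℂ, IsIrrCharacter G χ₁ ∧ IsIrrCharacter G χ₂ ∧
      ∀ g : G, (∀ (a : G) (y : C), lam y ≠ 1 → a * g * a⁻¹ ≠ y) → χ₁ g - χ₂ g = 1 := by
  classical
  have := Fintype.ofFinite N
  have hn : (C.subgroupOf N).Normal := ⟨fun y hy g => hconj g g.2 y hy⟩
  have := Fintype.ofFinite (C.subgroupOf N)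
  set lam' : C.subgroupOf N →* ℂˣ := lam.comp (subgroupOfEquivOfLe hCN).toMonoidHom with hlam'
  set ψ : C.subgroupOf N → ℂ := fun y => (lam' y : ℂ) with hψ
  have hψi : IsIrrCharacter _ ψ := isIrrCharacter_linear lam'
  have hψv : ∀ y : C.subgroupOf N, ψ y = lam ⟨((y : N) : G), y.2⟩ := fun y => rfl
  set x' : C.subgroupOf N := ⟨⟨x, hCN hxC⟩, hxC⟩ with hx'
  have hψx : lam' x' ≠ 1 := hlx
  have hψ1 : ψ ≠ fun _ => 1 := fun h => by
    have e : lam' x' = 1 := Units.ext (congrFun h x')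
    exact hψx e
  have hsI : (⟨s, hsN⟩ : N) ∉ inertia (C.subgroupOf N) ψ := by
    rw [mem_inertia']
    intro h
    have h1 := h x'
    exact hsx (Units.ext h1)
  have hind : IsIrrCharacter N (indFun (C.subgroupOf N) ψ) := by
    refine isIrr_indFun_of_forall_ne _ hψi fun g hg h => hsI ?_
    have h1 : g⁻¹ * ⟨s, hsN⟩ ∈ C.subgroupOf N := by
      rw [mul_mem_iff_of_index_two hidx, inv_mem_iff]
      exact iff_of_false hg hs
    have h2 := mul_mem ((mem_inertia _).2 h) (le_inertia _ hψi.isClassFunction h1)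
    simpa using h2
  have h11 : classInner (indFun (C.subgroupOf N) fun _ => 1)
      (indFun (C.subgroupOf N) fun _ => 1) = 2 := by
    rw [classInner_indFun_self_normal _ isIrrCharacter_one]
    have : inertia (C.subgroupOf N) (fun _ => (1 : ℂ)) = ⊤ := by
      ext g; simp [mem_inertia']
    rw [this, relIndex_top_right, hidx]; norm_num
  have h01 : classInner (indFun (C.subgroupOf N) ψ) (indFun (C.subgroupOf N) fun _ => 1) = 0 :=
    classInner_indFun_indFun_eq_zero _ hψi isIrrCharacter_one fun g => hψ1.symm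
  have h10 : classInner (indFun (C.subgroupOf N) fun _ => 1) (indFun (C.subgroupOf N) ψ) = 0 := by
    rw [← classInner_conj_symm, h01, map_zero]
  set θ : N → ℂ := indFun (C.subgroupOf N) (ψ - fun _ => 1) with hθ
  have hθg : IsGeneralizedCharacter N θ :=
    isGeneralizedCharacter_indFun _ (hψi.isGen.sub isGen_one)
  have hθθ : classInner θ θ = 3 := by
    rw [hθ, indFun_sub, classInner_sub_left, classInner_sub_right, classInner_sub_right,
      hind.inner_self, h01, h10, h11]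
    norm_num
  have hθ1 : classInner θ (fun _ => 1) = -1 := by
    rw [hθ, classInner_indFun_left _ _ (isClassFunction_const 1), classInner_sub_left,
      hψi.inner_eq_zero isIrrCharacter_one hψ1, isIrrCharacter_one.inner_self]
    norm_num
  set X : Set G := {y | y ∈ C ∧ ∃ a ∈ N, ∃ z : C, lam z ≠ 1 ∧ a * y * a⁻¹ = z} with hX
  have hθX : ∀ y : N, (y : G) ∉ X → θ y = 0 := by
    intro y hy
    by_cases h : (y : G) ∈ C
    · refine indFun_eq_zero _ _ _ fun g hg => ?_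
      rw [Pi.sub_apply, hψv]
      by_contra h0
      refine hy ⟨h, g, g.2, ⟨_, hg⟩, fun e => h0 ?_, rfl⟩
      erw [e]
      simp
    · exact indFun_eq_zero_of_normal _ _ h
  have hone : ∀ (a : G) (y : C), lam y ≠ 1 → a * 1 * a⁻¹ ≠ y := fun a y hy e =>
    hy (by rw [show y = 1 from Subtype.ext (by simpa using e.symm), map_one])
  have hTI : ∀ g : G, g ∉ N → ∀ t ∈ X, g * t * g⁻¹ ∈ X → t = 1 := by
    rintro g hg t ⟨-, a, ha, z, hz, e⟩ ⟨-, a', ha', z', hz', e'⟩
    have h1 := hTI0 (a' * g * a⁻¹) z z' hz hz' (by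
      rw [← e, ← e']
      group)
    exact absurd (by simpa [mul_assoc] using mul_mem (mul_mem (inv_mem ha') h1) ha) hg
  have hθ0 : θ 1 = 0 := hθX 1 fun ⟨_, a, _, z, hz, e⟩ => hone a z hz e
  have hΘΘ : classInner (indFun N θ) (indFun N θ) = 3 := by
    rw [classInner_indFun_indFun_of_TI N X hTI hθg.isClassFunction hθX hθX hθ0, hθθ]
  have hΘ1 : classInner (indFun N θ) (fun _ => 1) = -1 := by
    rw [classInner_indFun_left _ _ (isClassFunction_const 1), hθ1]
  have h1Θ : classInner (fun _ => 1) (indFun N θ) = -1 := by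
    rw [← classInner_conj_symm, hΘ1]; simp
  have hΘv : ∀ g : G, (∀ (a : G) (y : C), lam y ≠ 1 → a * g * a⁻¹ ≠ y) → indFun N θ g = 0 :=
    fun g hg => indFun_eq_zero _ _ _ fun a ha => hθX _ fun ⟨_, b, _, z, hz, e⟩ =>
      hg (b * a) z hz (by
        rw [← e]
        simp [mul_assoc])
  obtain ⟨α, β, hα, hβ, -, -, h⟩ := BS.exists_irr_sub_of_degree_one
    ((isGeneralizedCharacter_indFun N hθg).add isGen_one)
    (by rw [classInner_add_left, classInner_add_right, classInner_add_right, hΘΘ, hΘ1, h1Θ,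
      isIrrCharacter_one.inner_self]; norm_num)
    (by rw [Pi.add_apply, hΘv 1 hone, zero_add])
    (by rw [classInner_add_left, hΘ1, isIrrCharacter_one.inner_self]; norm_num)
  refine ⟨α, β, hα, hβ, fun g hg => ?_⟩
  have := congrFun h g
  rw [Pi.add_apply, hΘv g hg, zero_add] at this
  exact this.symm

theorem c8_bs {G : Type*} [Group G] [Finite G] [IsSimpleGroup G] (C N : Subgroup G) (hCN : C ≤ N)
    (hconj : ∀ g ∈ N, ∀ y ∈ C, g * y * g⁻¹ ∈ C) (hidx : (C.subgroupOf N).index = 2)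
    (lam : C →* ℂˣ) {s x : G} (hsN : s ∈ N) (hs : s ∉ C) (hxC : x ∈ C)
    (hsx : lam ⟨s * x * s⁻¹, hconj s hsN x hxC⟩ ≠ lam ⟨x, hxC⟩) (hlx : lam ⟨x, hxC⟩ ≠ 1)
    (hTI : ∀ (g : G) (y z : C), lam y ≠ 1 → lam z ≠ 1 → g * y * g⁻¹ = z → g ∈ N) {t : G} (ht : orderOf t = 2)
    (ht1 : ∀ (g : G) (y : C), lam y ≠ 1 → g * t * g⁻¹ ≠ y)
    (ht2 : ∀ (b g : G) (y : C), lam y ≠ 1 → g * (b * t * b⁻¹ * t) * g⁻¹ ≠ y) : False := by
  have := Fintype.ofFinite G
  obtain ⟨χ₁, χ₂, h1, h2, h6⟩ := c8_pair C N hCN hconj hidx lam hsN hs hxC hsx hlx hTI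
  have h5 : χ₁ 1 = χ₂ 1 + 1 := by
    rw [← h6 1 fun a y hy e =>
      hy (by rw [show y = 1 from Subtype.ext (by simpa using e.symm), map_one])]
    ring
  have hk : t ∈ charKer χ₁ := by
    rw [mem_charKer_iff h1.isCharacter]
    have e1 := h1.one_mul_sum_conj_mul t t
    have e2 := h2.one_mul_sum_conj_mul t t
    have e3 : ∑ a : G, χ₁ (a * t * a⁻¹ * t) = ∑ a : G, χ₂ (a * t * a⁻¹ * t) + Nat.card G := by
      rw [Nat.card_eq_fintype_card, ← Finset.card_univ, Finset.cast_card, ← Finset.sum_add_distrib]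
      refine Finset.sum_congr rfl fun a _ => ?_
      rw [← h6 (a * t * a⁻¹ * t) (ht2 a)]
      ring
    have e4 : χ₁ t = χ₂ t + 1 := by rw [← h6 t ht1]; ring
    have e5 := natCard_ne_zero_complex G
    have e6 : (Nat.card G : ℂ) * (χ₂ t - χ₂ 1) ^ 2 = 0 := by
      rw [e3, h5, e4] at e1
      linear_combination χ₂ 1 * e1 - (χ₂ 1 + 1) * e2
    have e7 : χ₂ t = χ₂ 1 := sub_eq_zero.1 (pow_eq_zero_iff two_ne_zero |>.1
      ((mul_eq_zero.1 e6).resolve_left e5))
    rw [e4, h5, e7]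
  rcases (charKer_normal h1.isClassFunction).eq_bot_or_eq_top with h | h
  · rw [h, mem_bot] at hk
    simp [hk] at ht
  · have h7 := one_eq_one_of_commutator_le h1 (h ▸ le_top)
    rw [h5, add_eq_right] at h7
    exact h2.one_ne_zero h7


/-- The rotations of the dihedral group. -/
def c8_rot : Subgroup (DihedralGroup 5) where
  carrier := {g | ∃ k, g = DihedralGroup.r k}
  mul_mem' := by
    rintro _ _ ⟨i, rfl⟩ ⟨j, rfl⟩
    exact ⟨i + j, rfl⟩
  one_mem' := ⟨0, rfl⟩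
  inv_mem' := by
    rintro _ ⟨i, rfl⟩
    exact ⟨-i, rfl⟩

theorem c8_rot_index : c8_rot.index = 2 := by
  rw [index_eq_two_iff]
  refine ⟨DihedralGroup.sr 0, fun b => ?_⟩
  rcases b with k | k
  · refine Or.inr ⟨⟨k, rfl⟩, ?_⟩
    rintro ⟨j, hj⟩
    rw [DihedralGroup.r_mul_sr] at hj
    cases hj
  · refine Or.inl ⟨⟨_, DihedralGroup.sr_mul_sr _ _⟩, ?_⟩
    rintro ⟨j, hj⟩
    cases hj

/-- The angle of a rotation. -/
def c8_ang : DihedralGroup 5 → ZMod 5
  | DihedralGroup.r k => k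
  | DihedralGroup.sr _ => 0

/-- A faithful linear character of the rotations. -/
noncomputable def c8_mu : c8_rot →* ℂˣ where
  toFun g := Circle.toUnits (ZMod.toCircle (c8_ang g))
  map_one' := by
    change Circle.toUnits (ZMod.toCircle (0 : ZMod 5)) = 1
    simp
  map_mul' := by
    rintro ⟨_, i, rfl⟩ ⟨_, j, rfl⟩
    change Circle.toUnits (ZMod.toCircle (i + j)) =
      Circle.toUnits (ZMod.toCircle i) * Circle.toUnits (ZMod.toCircle j)
    rw [AddChar.map_add_eq_mul, map_mul]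

theorem c8_mu_inj : Function.Injective c8_mu := by
  rw [injective_iff_map_eq_one]
  rintro ⟨_, i, rfl⟩ h
  change Circle.toUnits (ZMod.toCircle i) = 1 at h
  have h1 : ZMod.toCircle i = ZMod.toCircle (0 : ZMod 5) := by
    rw [AddChar.map_zero_eq_one]
    apply Circle.ext
    simpa using congrArg Units.val h
  have := ZMod.injective_toCircle h1
  subst this
  rfl

/-- `θ = (1 + ε - ψ) ∘ φ` on `N` (`ε` the sign, `ψ` a 2-dimensional irreducible character of
`D10`, or write `θ = Ind_{C}^{N}(1 - λ)` with `C = φ⁻¹(rotations)`): it vanishes off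
`A = φ⁻¹(r k, k ≠ 0)`, has norm 3 and `⟨θ, 1⟩ = 1`. TI induction (`Char/TI`): `Θ = θ^G` is a
generalized character of norm 3, degree 0, `⟨Θ, 1⟩ = 1`, so `Θ = 1 + χ - ξ` with irreducible
`χ, ξ ≠ 1`, `ξ(1) = χ(1) + 1`; `Θ(t) = 0` (conjugates of `t` in `N` are involutions). A product
`u` of two conjugates of `t` is not conjugate into `A`: the first factor `c` inverts `u ∈ A`, so
`c ∈ N`, `φ c = 1`, `(φ u)² = 1`. So `∑_{g,g'} Θ(t^g t^g') = 0`:
`1 + χ(t)²/χ(1) - ξ(t)²/ξ(1) = 0`, whence `χ(t) = χ(1)`, `t ∈ ker χ`, against simplicity.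
See `Char/BrauerSuzuki` (`exists_pair_of_lam`, `exists_normal_involutions_le`) and
`Char/NormThree` for the same computation. -/
theorem bs3 {G : Type*} [Group G] [Finite G] [IsSimpleGroup G] (N : Subgroup G)
    (φ : N →* DihedralGroup 5) (hφ : Function.Surjective φ)
    (hTI : ∀ (g : G) (u v : N), g * u * g⁻¹ = v → (∃ k, k ≠ 0 ∧ φ u = DihedralGroup.r k) →
      (∃ k, k ≠ 0 ∧ φ v = DihedralGroup.r k) → g ∈ N)
    (hinv : ∀ c : N, c ^ 2 = 1 → φ c = 1) (t : G) (ht : orderOf t = 2) : False := by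
  set C : Subgroup G := (c8_rot.comap φ).map N.subtype with hC
  have hCN : C ≤ N := map_subtype_le _
  have hsub : C.subgroupOf N = c8_rot.comap φ :=
    comap_map_eq_self_of_injective N.subtype_injective _
  have hmem : ∀ y : N, (y : G) ∈ C ↔ φ y ∈ c8_rot := fun y => by
    rw [← mem_subgroupOf, hsub, mem_comap]
  have hidx : (C.subgroupOf N).index = 2 := by
    rw [hsub, index_comap_of_surjective _ hφ, c8_rot_index]
  have hrn : c8_rot.Normal := normal_of_index_eq_two c8_rot_index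
  have hconj : ∀ g ∈ N, ∀ y ∈ C, g * y * g⁻¹ ∈ C := fun g hg y hy => by
    have := (hmem (⟨g, hg⟩ * ⟨y, hCN hy⟩ * ⟨g, hg⟩⁻¹)).2 (by
      rw [map_mul, map_mul, map_inv]
      exact hrn.conj_mem _ ((hmem ⟨y, hCN hy⟩).1 hy) _)
    exact this
  let ψ : C →* c8_rot := (φ.comp (inclusion hCN)).codRestrict c8_rot
    fun y => (hmem (inclusion hCN y)).1 y.2
  let lam : C →* ℂˣ := c8_mu.comp ψ
  have hlam : ∀ y z : C, lam y = lam z ↔ φ (inclusion hCN y) = φ (inclusion hCN z) := fun y z =>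
    ⟨fun h => congrArg Subtype.val (c8_mu_inj h), fun h => congrArg c8_mu (Subtype.ext h)⟩
  have hlam1 : ∀ y : C, lam y = 1 ↔ φ (inclusion hCN y) = 1 := fun y => by
    rw [← map_one lam, hlam, map_one, map_one]
  have hne : ∀ y : C, lam y ≠ 1 → ∃ k, k ≠ 0 ∧ φ (inclusion hCN y) = DihedralGroup.r k := by
    intro y hy
    obtain ⟨k, hk⟩ := (hmem (inclusion hCN y)).1 y.2
    refine ⟨k, ?_, hk⟩
    rintro rfl
    exact hy ((hlam1 y).2 hk)
  obtain ⟨s, hs⟩ := hφ (DihedralGroup.sr 0)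
  obtain ⟨x, hx⟩ := hφ (DihedralGroup.r 1)
  have hxC : (x : G) ∈ C := (hmem x).2 ⟨1, hx⟩
  have hsC : (s : G) ∉ C := fun h => by
    obtain ⟨k, hk⟩ := (hmem s).1 h
    rw [hs] at hk
    cases hk
  have hT : ∀ (g : G) (y z : C), lam y ≠ 1 → lam z ≠ 1 → g * y * g⁻¹ = z → g ∈ N :=
    fun g y z hy hz e => hTI g (inclusion hCN y) (inclusion hCN z) e (hne y hy) (hne z hz)
  have ht2 : t * t = 1 := by rw [← sq, ← ht, pow_orderOf_eq_one]
  have hsq : ∀ g : G, (g * t * g⁻¹) ^ 2 = 1 := fun g => by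
    rw [conj_pow, sq, ht2]; simp
  refine c8_bs C N hCN hconj hidx lam s.2 hsC hxC ?_ ?_ hT ht ?_ ?_
  · rw [Ne, hlam]
    change ¬ φ (s * x * s⁻¹) = φ x
    rw [map_mul, map_mul, map_inv, hs, hx]
    decide
  · rw [Ne, hlam1]
    change ¬ φ x = 1
    rw [hx]
    decide
  · intro g y hy e
    refine hy ((hlam1 y).2 (hinv _ (Subtype.ext ?_)))
    change (y : G) ^ 2 = 1
    rw [← e, hsq]
  · intro b g y hy e
    have hc := hsq (g * b)
    have hc' := hsq g
    set c := g * b * t * (g * b)⁻¹ with hcd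
    set c' := g * t * g⁻¹ with hcd'
    have hy' : (y : G) = c * c' := by rw [← e, hcd, hcd']; group
    have hci : c⁻¹ = c := by rw [inv_eq_iff_mul_eq_one, ← sq, hc]
    have hci' : c'⁻¹ = c' := by rw [inv_eq_iff_mul_eq_one, ← sq, hc']
    have hcN : c ∈ N := hT c y y⁻¹ hy (by rw [map_inv]; exact inv_ne_one.2 hy) (by
      rw [Subgroup.coe_inv, hy', mul_inv_rev c c', hci', ← mul_assoc c c c', ← sq, hc, one_mul])
    have hcN' : c' ∈ N := by
      have := mul_mem (inv_mem hcN) (hCN y.2)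
      rwa [hy', inv_mul_cancel_left] at this
    refine hy ((hlam1 y).2 ?_)
    have : inclusion hCN y = ⟨c, hcN⟩ * ⟨c', hcN'⟩ := Subtype.ext hy'
    rw [this, map_mul, hinv _ (Subtype.ext hc), hinv _ (Subtype.ext hc'), one_mul]

end Cfsg.Agent.MCX
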